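import Cfsg.Agent.H240.GFive
import Cfsg.Agent.H240.TwD4Z
import Cfsg.Agent.S1030
import Cfsg.Agent.SignalizersComponents.SLQuasisimple

/-!
# A perfect subgroup centralising a central `p`-element of `G₂(p)`, `p ≥ 5` (helper240)
-/

set_option autoImplicit false

namespace Cfsg.Agent.H240.GFive

open Subgroup Cfsg.Lie Cfsg.Agent.H120 Cfsg.Agent.H120.Hx Cfsg.Agent.H120.GTwo
open Cfsg.Agent.ChevalleyStructure.G2N (xG coe_xG xG_add xG_zero)
open Cfsg.Agent.ChevalleyStructure

theorem g25 {L : Type*} [Group L] [Finite L] {F : Type*} [Field F] [Fintype F] {p : ℕ} [hp : Fact p.Prime]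
    (hF : Fintype.card F = p) (h5 : 5 ≤ p) (e : L ≃* ↥(chevG2.group F)) (P : Sylow p L) {z : L} (hz : orderOf z = p)
    (hzP : ∀ x ∈ P, x * z = z * x) :
    ∃ M : Subgroup L, M ≤ centralizer ({z} : Set L) ∧ ⁅M, M⁆ = M ∧ M ≠ ⊥ := by
  have hc : CharP F p := charP_of_card_eq_prime hF
  have h2 : (2 : F) ≠ 0 := by
    intro h0
    have : ((2 : ℕ) : F) = 0 := by exact_mod_cast h0
    rw [CharP.cast_eq_zero_iff F p] at this
    have := Nat.le_of_dvd (by norm_num) this
    omega
  have h3 : (3 : F) ≠ 0 := by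
    intro h0
    have : ((3 : ℕ) : F) = 0 := by exact_mod_cast h0
    rw [CharP.cast_eq_zero_iff F p] at this
    have := Nat.le_of_dvd (by norm_num) this
    omega
  obtain ⟨P0, hP0, hinj⟩ := exists_sylow (F := F) hF
  have H := sys (F := F)
  obtain ⟨f, hf⟩ := LF.exists_equiv e P P0
  have hzm : z ∈ P := TwD4Z.mem_sylow P (by rw [← hz, pow_orderOf_eq_one]) hzP
  obtain ⟨u, hu⟩ := (hP0 (f z)).1 ((hf z).1 hzm)
  obtain ⟨t, ht⟩ := center H h2 h3 hinj (u := u) (fun v => by
    rw [← hu]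
    obtain ⟨y, hy⟩ := f.surjective (NF (XX : ZMod 12 → F → ↥(chevG2.group F)) v)
    have h6 : y ∈ P := (hf y).2 (by rw [hy]; exact (hP0 _).2 ⟨v, rfl⟩)
    rw [← hy, ← map_mul, hzP y h6, map_mul])
  rw [← hu] at ht
  -- the homomorphism
  obtain ⟨φ, -, hφ⟩ := Cfsg.Agent.S1030.result (F := F) chevG2 (by simp) (tab 0) (by decide)
  have hup : ∀ s : F, φ (SL2Hom.up s) = xG (tab 0) s := by
    intro s
    apply Units.ext
    rw [(hφ _ s).1 rfl]
    exact (coe_xG _ _).symm
  have hneg : chevG2.neg (tab 0) = tab 6 := by decide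
  have hlo : ∀ s : F, φ (SL2Hom.lo s) = xG (tab 6) s := by
    intro s
    apply Units.ext
    rw [(hφ _ s).2 rfl, hneg]
    exact (coe_xG _ _).symm
  have hmem : ∀ g, φ g ∈ chevG2.group F := by
    intro g
    induction SL2Hom.mem_closure_SL2 g using closure_induction with
    | mem g hg =>
      rcases hg with ⟨s, rfl⟩ | ⟨s, rfl⟩
      · rw [hup]
        exact (XX 0 s : ↥(chevG2.group F)).2
      · rw [hlo]
        exact (XX 6 s : ↥(chevG2.group F)).2
    | one => rw [map_one]; exact one_mem _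
    | mul a b _ _ ha hb => rw [map_mul]; exact mul_mem ha hb
    | inv a _ ha => rw [map_inv]; exact inv_mem ha
  set ψ : Matrix.SpecialLinearGroup (Fin 2) F →* ↥(chevG2.group F) := φ.codRestrict _ hmem with hψ
  have hψu : ∀ s, ψ (SL2Hom.up s) = XX 0 s := fun s => Subtype.ext (hup s)
  have hψl : ∀ s, ψ (SL2Hom.lo s) = XX 6 s := fun s => Subtype.ext (hlo s)
  have hcomm : ∀ g, Commute (ψ g) (XX 3 t) := by
    intro g
    induction SL2Hom.mem_closure_SL2 g using closure_induction with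
    | mem g hg =>
      rcases hg with ⟨s, rfl⟩ | ⟨s, rfl⟩
      · rw [hψu]
        exact H.comm 0 3 (by decide) _ _
      · rw [hψl]
        exact H.comm 6 3 (by decide) _ _
    | one => rw [map_one]; exact Commute.one_left _
    | mul a b _ _ ha hb => rw [map_mul]; exact ha.mul_left hb
    | inv a _ ha => rw [map_inv]; exact ha.inv_left
  let θ : Matrix.SpecialLinearGroup (Fin 2) F →* L := f.symm.toMonoidHom.comp ψ
  refine ⟨θ.range, ?_, ?_, ?_⟩
  · rintro _ ⟨a, rfl⟩
    refine mem_centralizer_singleton_iff.2 ?_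
    apply f.injective
    have h6 : f (θ a) = ψ a := f.apply_symm_apply _
    rw [map_mul, map_mul, h6, ht]
    exact (hcomm a).eq
  · have h4 : 4 ≤ Nat.card F := by
      rw [Nat.card_eq_fintype_card, hF]
      omega
    have hperf := (Cfsg.Agent.SignalizersComponents.SLQuasisimple.isQuasisimple_two (F := F) h4).1
    have h1 : commutator (Matrix.SpecialLinearGroup (Fin 2) F) = ⊤ := hperf.commutator_eq_top
    rw [MonoidHom.range_eq_map, ← Subgroup.map_commutator, ← commutator_def, h1]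
  · intro h1
    have h2 : θ (SL2Hom.up 1) = 1 := by
      have : θ (SL2Hom.up 1) ∈ θ.range := ⟨_, rfl⟩
      rwa [h1, mem_bot] at this
    have h3 : ψ (SL2Hom.up 1) = 1 := by
      have h6 : f (θ (SL2Hom.up 1)) = ψ (SL2Hom.up 1) := f.apply_symm_apply _
      rw [← h6, h2, map_one]
    rw [hψu] at h3
    exact one_ne_zero (XX_inj 0 1 h3)

end Cfsg.Agent.H240.GFive
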